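import Cfsg.Agent.Lib.LinHall.Main
import Cfsg.Agent.S4470

/-!
# Jordan's theorem with Blichfeldt's explicit bound
-/

set_option autoImplicit false
set_option linter.unusedSectionVars false
set_option linter.style.haveILetI false
set_option linter.unusedSimpArgs false
set_option linter.unnecessarySimpa false

namespace Cfsg.Agent.Lib.LinHall

open Cfsg Cfsg.Agent.Lib.Char

universe u

theorem local_bound {G : Type u} [Group G] [Finite G] {χ : G → ℂ} (hχ : IsCharacter G χ)
    (hf : ∀ g : G, χ g = χ 1 → g = 1) {n : ℕ} (hn : charDegree χ = n) (A : Subgroup G) [A.Normal]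
    (hAb : ∀ H : Subgroup G, (∀ x ∈ H, ∀ y ∈ H, x * y = y * x) → (A.subgroupOf H).index ≤ 12 ^ n)
    {p : ℕ} (hp : p.Prime) :
    ∃ e : ℕ, (∃ k, e = p ^ k) ∧ e ∣ n.factorial ∧ p ^ (A.index.factorization p) ≤ 12 ^ n * e := by
  classical
  haveI : Fact p.Prime := ⟨hp⟩
  let P : Sylow p G := default
  letI : Fintype (P : Subgroup G) := Fintype.ofFinite _
  haveI : Group.IsNilpotent (P : Subgroup G) := P.isPGroup'.isNilpotent
  obtain ⟨D', hD'c, hD'i⟩ := exists_abelian_index_dvd_factorial
    (χ := fun x : (P : Subgroup G) => χ x) (IsCharacter.restrict _ hχ)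
    (fun g hg => Subtype.ext (hf _ hg))
  have hdeg : charDegree (fun x : (P : Subgroup G) => χ x) = n := hn
  rw [hdeg] at hD'i
  let D : Subgroup G := D'.map (P : Subgroup G).subtype
  have hDP : D ≤ (P : Subgroup G) := Subgroup.map_subtype_le _
  have hDc : ∀ x ∈ D, ∀ y ∈ D, x * y = y * x := by
    rintro _ ⟨x, hx, rfl⟩ _ ⟨y, hy, rfl⟩
    exact congrArg Subtype.val (hD'c x hx y hy)
  have hrel : D.relIndex (P : Subgroup G) = D'.index := by
    rw [Subgroup.relIndex]
    congr 1
    exact Subgroup.comap_map_eq_self_of_injective (P : Subgroup G).subtype_injective D'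
  have hcardP := IsPGroup.iff_card.1 P.isPGroup'
  obtain ⟨a, ha⟩ := hcardP
  have hdP : D'.index ∣ p ^ a := by
    rw [← ha]
    exact Subgroup.index_dvd_card D'
  obtain ⟨k, -, hk⟩ := (Nat.dvd_prime_pow hp).1 hdP
  refine ⟨D'.index, ⟨k, hk⟩, hD'i, ?_⟩
  have hm0 : A.index ≠ 0 := Subgroup.index_ne_zero_of_finite
  have h1 : A.relIndex (P : Subgroup G) * ((P : Subgroup G) ⊔ A).index = A.index := by
    rw [← Subgroup.relIndex_sup_right (P : Subgroup G) A]
    exact Subgroup.relIndex_mul_index le_sup_right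
  have hj : ¬ p ∣ ((P : Subgroup G) ⊔ A).index := fun h =>
    P.not_dvd_index (h.trans (Subgroup.index_dvd_of_le le_sup_left))
  have h2 : p ^ (A.index.factorization p) ∣ A.relIndex (P : Subgroup G) := by
    have h3 : p ^ (A.index.factorization p) ∣ A.index := Nat.ordProj_dvd _ _
    have h3' : p ^ (A.index.factorization p) ∣
        A.relIndex (P : Subgroup G) * ((P : Subgroup G) ⊔ A).index := by rwa [h1]
    refine Nat.Coprime.dvd_of_dvd_mul_right ?_ h3'
    exact Nat.Coprime.pow_left _ ((Nat.Prime.coprime_iff_not_dvd hp).2 hj)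
  have h3 : A.relIndex (P : Subgroup G) ∣ A.relIndex D * D'.index := by
    rw [← hrel, ← Subgroup.inf_relIndex_right A D,
      Subgroup.relIndex_mul_relIndex (A ⊓ D) D (P : Subgroup G) inf_le_right hDP]
    exact Subgroup.relIndex_dvd_of_le_left _ inf_le_left
  have hpos : 0 < A.relIndex D * D'.index := by
    refine Nat.mul_pos ?_ (Nat.pos_of_ne_zero Subgroup.index_ne_zero_of_finite)
    exact Nat.pos_of_ne_zero Subgroup.index_ne_zero_of_finite
  have h4 := Nat.le_of_dvd hpos (h2.trans h3)
  refine h4.trans (Nat.mul_le_mul_right _ ?_)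
  exact hAb D hDc

/-- The explicit bound. -/
theorem jordan_bound {G : Type u} [Group G] [Finite G] {χ : G → ℂ} (hχ : IsCharacter G χ)
    (hf : ∀ g : G, χ g = χ 1 → g = 1) {n : ℕ} (hn : charDegree χ = n) (A : Subgroup G) [A.Normal]
    (hAb : ∀ H : Subgroup G, (∀ x ∈ H, ∀ y ∈ H, x * y = y * x) → (A.subgroupOf H).index ≤ 12 ^ n) :
    A.index ≤ n.factorial * 12 ^ (n * (Nat.primeCounting (n + 1) + 1)) := by
  classical
  obtain ⟨H, hHc, hHo, hHi⟩ := exists_abelian_hall χ hχ hf n hn
  have hm : H.relIndex ⊤ = H.index := Subgroup.relIndex_top_right H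
  have h1 : A.relIndex H * (H ⊔ A).index = A.index := by
    rw [← Subgroup.relIndex_sup_right H A]
    exact Subgroup.relIndex_mul_index le_sup_right
  have hale : A.relIndex H ≤ 12 ^ n := hAb H hHc
  set b := (H ⊔ A).index with hb
  have hb0 : b ≠ 0 := Subgroup.index_ne_zero_of_finite
  have hm0 : A.index ≠ 0 := Subgroup.index_ne_zero_of_finite
  have hbd : b ∣ A.index := Dvd.intro_left _ h1
  have hbprimes : ∀ q : ℕ, q.Prime → q ∣ b → q ≤ n + 1 := fun q hq hqd =>
    hHi q hq (hqd.trans (Subgroup.index_dvd_of_le le_sup_left))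
  let F : Finset ℕ := (Finset.range (n + 2)).filter Nat.Prime
  have hF : Nat.primeCounting (n + 1) = F.card := by
    rw [Nat.primeCounting, Nat.primeCounting', Nat.count_eq_card_filter_range]
  have hloc := fun (p : ℕ) (hp : p.Prime) => local_bound hχ hf hn A hAb hp
  choose! e he1 he2 he3 using hloc
  have hbprod : b = ∏ p ∈ F, p ^ (b.factorization p) := by
    conv_lhs => rw [← Nat.prod_factorization_pow_eq_self hb0]
    refine Finset.prod_subset ?_ ?_
    · intro p hp
      have hpb := Nat.mem_primeFactors.1 (by rwa [Nat.support_factorization] at hp)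
      refine Finset.mem_filter.2 ⟨Finset.mem_range.2 ?_, hpb.1⟩
      have := hbprimes p hpb.1 hpb.2.1
      omega
    · intro p _ hp
      show p ^ (b.factorization p) = 1
      rw [Finsupp.notMem_support_iff.1 hp, pow_zero]
  have hble : b ≤ ∏ p ∈ F, (12 ^ n * e p) := by
    rw [hbprod]
    refine Finset.prod_le_prod' fun p hp => ?_
    have hpp := (Finset.mem_filter.1 hp).2
    refine le_trans ?_ (he3 p hpp)
    refine Nat.pow_le_pow_right hpp.pos ?_
    exact (Nat.factorization_le_iff_dvd hb0 hm0).2 hbd p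
  have heprod : ∏ p ∈ F, e p ∣ n.factorial := by
    refine Finset.prod_dvd_of_isRelPrime ?_ fun p hp => he2 p (Finset.mem_filter.1 hp).2
    intro p hp q hq hpq
    have hpp := (Finset.mem_filter.1 hp).2
    have hqq := (Finset.mem_filter.1 hq).2
    obtain ⟨k, hk⟩ := he1 p hpp
    obtain ⟨l, hl⟩ := he1 q hqq
    show IsRelPrime (e p) (e q)
    rw [hk, hl, ← Nat.coprime_iff_isRelPrime]
    exact Nat.coprime_pow_primes k l hpp hqq hpq
  have hele : ∏ p ∈ F, e p ≤ n.factorial := Nat.le_of_dvd (Nat.factorial_pos n) heprod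
  rw [Finset.prod_mul_distrib, Finset.prod_const] at hble
  calc A.index = A.relIndex H * b := h1.symm
    _ ≤ 12 ^ n * ((12 ^ n) ^ F.card * n.factorial) :=
        Nat.mul_le_mul hale (hble.trans (Nat.mul_le_mul_left _ hele))
    _ = n.factorial * 12 ^ (n * (Nat.primeCounting (n + 1) + 1)) := by
        rw [hF, mul_add, mul_one, pow_add, pow_mul]
        ring

end Cfsg.Agent.Lib.LinHall
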