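import Cfsg.Agent.Lib.Degree.GaloisChar
import Cfsg.Agent.Lib.MGroup.Wreath

/-!
# Linear groups: abelian Hall subgroups for the primes above `n + 1`
-/

set_option autoImplicit false
set_option linter.unusedSectionVars false
set_option linter.style.haveILetI false
set_option linter.unusedSimpArgs false
set_option linter.unnecessarySimpa false

open scoped ComplexConjugate

namespace Cfsg.Agent.Lib.LinHall

open Cfsg Cfsg.Agent.Lib.Char Cfsg.Agent.Lib.Degree Cfsg.Agent.Lib.MGroup

universe u

section Disjoint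

variable {G : Type u} [Group G] [Fintype G]

/-- An element of order `p > χ(1) + 1` has a power on which a faithful character takes a
different value. -/
theorem exists_pow_ne_of_large {χ : G → ℂ} (hχ : IsCharacter G χ)
    (hfaith : ∀ g, χ g = χ 1 → g = 1) {p : ℕ} (hp : p.Prime) (hlt : charDegree χ + 1 < p)
    {x : G} (hx : orderOf x = p) : ∃ j, 0 < j ∧ j < p ∧ χ (x ^ j) ≠ χ x := by
  classical
  by_contra hcon
  push Not at hcon
  have hfin : IsOfFinOrder x := isOfFinOrder_of_finite x
  set c := χ x with hc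
  set n := charDegree χ with hn
  have h1 : χ 1 = (n : ℂ) := map_one_eq_charDegree hχ
  letI : Fintype (Subgroup.zpowers x) := Fintype.ofFinite _
  obtain ⟨a, ha⟩ := classInner_isCharacter_nat (IsCharacter.restrict (Subgroup.zpowers x) hχ)
    (IsCharacter.one (G := Subgroup.zpowers x))
  have hcard : Nat.card (Subgroup.zpowers x) = p := by
    rw [Nat.card_zpowers, hx]
  have hsum : ∑ h : Subgroup.zpowers x, χ h = (n : ℂ) + ((p : ℂ) - 1) * c := by
    have e := finEquivZPowers hfin
    have h2 : ∑ h : Subgroup.zpowers x, χ h = ∑ j : Fin (orderOf x), χ (x ^ (j : ℕ)) := by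
      refine (Fintype.sum_equiv (finEquivZPowers hfin) _ _ fun j => ?_).symm
      rfl
    rw [h2]
    have hp0 : 0 < orderOf x := by rw [hx]; exact hp.pos
    rw [Fin.sum_univ_eq_sum_range (fun j => χ (x ^ j)) (orderOf x), hx]
    obtain ⟨r, rfl⟩ : ∃ r, p = r + 1 := ⟨p - 1, (Nat.sub_add_cancel hp.pos).symm⟩
    rw [Finset.sum_range_succ']
    have h3 : ∑ k ∈ Finset.range r, χ (x ^ (k + 1)) = (r : ℂ) * c := by
      rw [Finset.sum_congr rfl (fun k hk => hcon (k + 1) (Nat.succ_pos k)
        (by have := Finset.mem_range.1 hk; omega))]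
      simp
    rw [h3, pow_zero, h1]
    push_cast
    ring
  have h4 : (p : ℂ) * a = (n : ℂ) + ((p : ℂ) - 1) * c := by
    rw [← hsum]
    have h5 := ha
    rw [classInner_def] at h5
    simp only [map_one, mul_one] at h5
    rw [hcard] at h5
    rw [← h5]
    have hp0 : (p : ℂ) ≠ 0 := Nat.cast_ne_zero.2 hp.ne_zero
    field_simp
  -- `c` is an integer
  have hp1 : ((p : ℂ) - 1) ≠ 0 := by
    have : ((p - 1 : ℕ) : ℂ) ≠ 0 := Nat.cast_ne_zero.2 (by have := hp.two_le; omega)
    rwa [Nat.cast_sub hp.pos, Nat.cast_one] at this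
  have hcrat : c = (((p : ℚ) * a - n) / ((p : ℚ) - 1) : ℚ) := by
    push_cast
    rw [eq_div_iff hp1]
    linear_combination -h4
  have hint : IsIntegral ℤ (((((p : ℚ) * a - n) / ((p : ℚ) - 1) : ℚ)) : ℂ) := by
    rw [← hcrat]
    exact IsCharacter.isIntegral' hχ x
  obtain ⟨z, hz⟩ := (isIntegral_ratCast_iff _).1 hint
  have hcz : c = (z : ℂ) := by
    rw [hcrat, hz]
    push_cast
    rfl
  have h6 : (p : ℤ) * a = n + ((p : ℤ) - 1) * z := by
    have : ((p : ℤ) * a : ℂ) = n + ((p : ℤ) - 1) * z := by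
      push_cast
      rw [← hcz]
      exact h4
    exact_mod_cast this
  have hnorm : ‖c‖ ≤ (χ 1).re := IsCharacter.norm_le' hχ x
  have hzle : z ≤ n := by
    rw [h1, hcz] at hnorm
    simp only [Complex.natCast_re, Complex.norm_intCast] at hnorm
    have : (z : ℝ) ≤ n := (le_abs_self _).trans hnorm
    exact_mod_cast this
  have hplt : (n : ℤ) + 1 < p := by exact_mod_cast hlt
  have ha_le : (a : ℤ) ≤ n := by
    have hpp : (0 : ℤ) < p := by omega
    have : (p : ℤ) * a ≤ p * n := by
      rw [h6]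
      nlinarith
    exact le_of_mul_le_mul_left this hpp
  have h7 : ((p : ℤ) - 1) * ((a : ℤ) - z) = (n : ℤ) - a := by linear_combination h6
  have h8 : (a : ℤ) - z = 0 := by
    by_contra hne
    have hpos : (0 : ℤ) ≤ (n : ℤ) - a := by omega
    rcases lt_or_gt_of_ne hne with h | h
    · have : ((p : ℤ) - 1) * ((a : ℤ) - z) < 0 :=
        mul_neg_of_pos_of_neg (by omega) h
      omega
    · have : ((p : ℤ) - 1) * 1 ≤ ((p : ℤ) - 1) * ((a : ℤ) - z) :=
        mul_le_mul_of_nonneg_left (by omega) (by omega)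
      have hn0 : (0 : ℤ) ≤ a := by positivity
      omega
  have h9 : (n : ℤ) = a := by
    rw [h8] at h7
    omega
  have h10 : z = n := by omega
  have h11 : χ x = χ 1 := by
    rw [h1, ← hc, hcz, h10]
    simp
  have h12 := hfaith x h11
  rw [h12, orderOf_one] at hx
  exact hp.one_lt.ne hx

/-- A Galois conjugate fixing the `p`-regular elements and moving `χ`. -/
theorem exists_gal {χ : G → ℂ} (hχ : IsCharacter G χ)
    (hfaith : ∀ g, χ g = χ 1 → g = 1) {p : ℕ} (hp : p.Prime) (hlt : charDegree χ + 1 < p)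
    (hpd : p ∣ Nat.card G) :
    ∃ k : ℕ, k.Coprime (Nat.card G) ∧ (∀ g : G, ¬ p ∣ orderOf g → g ^ k = g) ∧
      (fun g => χ (g ^ k)) ≠ χ := by
  classical
  haveI : Fact p.Prime := ⟨hp⟩
  obtain ⟨x, hx⟩ := exists_prime_orderOf_dvd_card' (G := G) p hpd
  obtain ⟨j, hj0, hjp, hj⟩ := exists_pow_ne_of_large hχ hfaith hp hlt hx
  have hm : Nat.card G ≠ 0 := Nat.card_pos.ne'
  obtain ⟨a, m', hm', hmeq⟩ := Nat.exists_eq_pow_mul_and_not_dvd hm p hp.ne_one
  have hcop : p.Coprime m' := (Nat.Prime.coprime_iff_not_dvd hp).2 hm'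
  obtain ⟨k, hk1, hk2⟩ := Nat.chineseRemainder hcop j 1
  refine ⟨k, ?_, ?_, ?_⟩
  · rw [hmeq]
    refine Nat.Coprime.mul_right (Nat.Coprime.pow_right a ?_) ?_
    · have h1 : Nat.gcd k p = Nat.gcd j p := hk1.gcd_eq
      have h2 : Nat.gcd j p = 1 := (Nat.coprime_of_lt_prime hj0.ne' hjp hp).symm
      rw [Nat.Coprime, h1, h2]
    · have h1 : Nat.gcd k m' = Nat.gcd 1 m' := hk2.gcd_eq
      rw [Nat.Coprime, h1, Nat.gcd_one_left]
  · intro g hg
    have hd : orderOf g ∣ p ^ a * m' := by
      rw [← hmeq]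
      exact orderOf_dvd_natCard g
    have hcop2 : (orderOf g).Coprime (p ^ a) :=
      Nat.Coprime.pow_right a ((Nat.Prime.coprime_iff_not_dvd hp).2 hg).symm
    have hd2 : orderOf g ∣ m' := hcop2.dvd_of_dvd_mul_left hd
    have h3 : k ≡ 1 [MOD orderOf g] := hk2.of_dvd hd2
    calc g ^ k = g ^ 1 := pow_eq_pow_iff_modEq.2 h3
      _ = g := pow_one g
  · intro heq
    have h3 : χ (x ^ k) = χ x := congrFun heq x
    have h4 : x ^ k = x ^ j := pow_eq_pow_iff_modEq.2 (by rw [hx]; exact hk1)
    rw [h4] at h3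
    exact hj h3

/-- Disjointness argument: a faithful irreducible character of degree smaller than `p - 1`,
`q - 1` forces an element of order divisible by both `p` and `q`. -/
theorem exists_mixed_order {χ : G → ℂ} (hχ : IsIrrCharacter G χ)
    (hfaith : ∀ g, χ g = χ 1 → g = 1) {p q : ℕ} (hp : p.Prime) (hq : q.Prime)
    (hlt1 : charDegree χ + 1 < p) (hlt2 : charDegree χ + 1 < q)
    (hpd : p ∣ Nat.card G) (hqd : q ∣ Nat.card G) :
    ∃ g : G, p ∣ orderOf g ∧ q ∣ orderOf g := by
  classical
  have hχc := IsIrrCharacter.isCharacter hχ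
  obtain ⟨k, hk, hk1, hk2⟩ := exists_gal hχc hfaith hp hlt1 hpd
  obtain ⟨l, hl, hl1, hl2⟩ := exists_gal hχc hfaith hq hlt2 hqd
  by_contra hcon
  push Not at hcon
  have hirrk := galois_isIrr hχ hk
  have hirrl := galois_isIrr hχ hl
  have h0 : classInner (χ - fun g => χ (g ^ k)) (χ - fun g => χ (g ^ l)) = 0 := by
    rw [classInner_def]
    refine mul_eq_zero_of_right _ (Finset.sum_eq_zero fun g _ => ?_)
    simp only [Pi.sub_apply]
    by_cases hg : p ∣ orderOf g
    · have hg2 := hcon g hg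
      rw [hl1 g hg2]
      simp
    · rw [hk1 g hg]
      simp
  rw [classInner_sub_left, classInner_sub_right, classInner_sub_right, classInner_irr_self hχ,
    classInner_irr_of_ne hχ hirrl hl2.symm, classInner_irr_of_ne hirrk hχ hk2] at h0
  obtain ⟨c, hc⟩ := classInner_isCharacter_nat (IsIrrCharacter.isCharacter hirrk)
    (IsIrrCharacter.isCharacter hirrl)
  rw [hc] at h0
  have : ((1 + c : ℕ) : ℂ) = 0 := by
    push_cast
    linear_combination h0
  have h2 : 1 + c = 0 := by exact_mod_cast this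
  omega

end Disjoint


section Good

/-- `G` has a faithful character of degree smaller than `p - 1` for every `p ∈ π`. -/
def GoodPi (π : Set ℕ) (G : Type u) [Group G] : Prop :=
  ∃ χ : G → ℂ, IsCharacter G χ ∧ (∀ g, χ g = χ 1 → g = 1) ∧ ∀ p ∈ π, charDegree χ + 1 < p

/-- `G` has an abelian Hall `π`-subgroup. -/
def HasHall (π : Set ℕ) (G : Type u) [Group G] : Prop :=
  ∃ A : Subgroup G, (∀ x ∈ A, ∀ y ∈ A, x * y = y * x) ∧
    (∀ q : ℕ, q.Prime → q ∣ Nat.card A → q ∈ π) ∧ ∀ q ∈ π, ¬ q ∣ A.index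

variable {π : Set ℕ} {G : Type u} [Group G]

theorem good_restrict (h : GoodPi π G) (L : Subgroup G) : GoodPi π L := by
  obtain ⟨χ, hχ, hf, hd⟩ := h
  refine ⟨fun x => χ x, IsCharacter.restrict L hχ, ?_, hd⟩
  intro g hg
  exact Subtype.ext (hf _ hg)

theorem charDegree_le_of_constituent [Fintype G] {χ ξ : G → ℂ} (hχ : IsCharacter G χ)
    (hξ : IsIrrCharacter G ξ) (h : classInner χ ξ ≠ 0) : charDegree ξ ≤ charDegree χ := by
  have h1 := isCharacter_sub_of_constituent hχ hξ h
  have h2 := map_one_eq_charDegree h1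
  have h3 := map_one_eq_charDegree hχ
  have h4 := map_one_eq_charDegree (IsIrrCharacter.isCharacter hξ)
  simp only [Pi.sub_apply] at h2
  rw [h3, h4] at h2
  have h5 : ((charDegree χ : ℕ) : ℂ) = (charDegree (χ - ξ) + charDegree ξ : ℕ) := by
    push_cast
    linear_combination h2
  have h6 : charDegree χ = charDegree (χ - ξ) + charDegree ξ := by exact_mod_cast h5
  omega

/-- A group with a faithful character whose irreducible constituents are all linear is abelian. -/
theorem comm_of_linear_constituents [Fintype G] {χ : G → ℂ} (hχ : IsCharacter G χ)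
    (hf : ∀ g, χ g = χ 1 → g = 1)
    (hlin : ∀ ξ : G → ℂ, IsIrrCharacter G ξ → classInner χ ξ ≠ 0 → ξ 1 = 1) (a b : G) :
    a * b = b * a := by
  classical
  have hsum := classFunction_eq_sum χ (IsCharacter.isClassFunction hχ)
  have hc : χ (a * b * a⁻¹ * b⁻¹) = χ 1 := by
    rw [hsum]
    simp only [Finset.sum_apply, Pi.smul_apply, smul_eq_mul]
    refine Finset.sum_congr rfl fun ξ _ => ?_
    by_cases h0 : classInner χ (ξ : G → ℂ) = 0
    · rw [h0]
      simp
    · obtain ⟨lam, hlam⟩ := exists_hom_of_character_one (IsIrrCharacter.isCharacter ξ.2)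
        (hlin _ ξ.2 h0)
      congr 1
      rw [hlam]
      simp only [map_mul, map_inv, map_one, Units.val_one]
      have : lam a * lam b * (lam a)⁻¹ * (lam b)⁻¹ = 1 := by
        rw [mul_comm (lam a) (lam b)]
        group
      rw [this]
      rfl
  have h1 := hf _ hc
  have h2 : a * b = (a * b * a⁻¹ * b⁻¹) * (b * a) := by group
  rw [h2, h1, one_mul]

/-- A `π`-group with a good character is abelian. -/
theorem comm_of_pi_order [Finite G] (hπ : ∀ p ∈ π, p.Prime) (hg : GoodPi π G)
    (hord : ∀ q : ℕ, q.Prime → q ∣ Nat.card G → q ∈ π) (a b : G) : a * b = b * a := by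
  classical
  letI : Fintype G := Fintype.ofFinite G
  obtain ⟨χ, hχ, hf, hd⟩ := hg
  refine comm_of_linear_constituents hχ hf (fun ξ hξ h0 => ?_) a b
  have hle := charDegree_le_of_constituent hχ hξ h0
  have hdvd := charDegree_dvd_card hξ
  have hone : charDegree ξ = 1 := by
    by_contra hne
    obtain ⟨r, hr, hrd⟩ := Nat.exists_prime_and_dvd hne
    have hr2 := hd r (hord r hr (hrd.trans hdvd))
    have hr3 : r ≤ charDegree ξ := Nat.le_of_dvd (charDegree_pos_of_irr hξ) hrd
    omega
  rw [map_one_eq_charDegree (IsIrrCharacter.isCharacter hξ), hone]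
  simp

/-- Descent to the quotient by the kernel of a character. -/
theorem exists_good_quot [Finite G] {ξ : G → ℂ} (hξ : IsCharacter G ξ)
    (hd : ∀ p ∈ π, charDegree ξ + 1 < p) :
    ∃ (K : Subgroup G) (_ : K.Normal), GoodPi π (G ⧸ K) ∧ ∀ g, g ∈ K ↔ ξ g = ξ 1 := by
  classical
  obtain ⟨n, ρ, rfl⟩ := hξ
  have hiff : ∀ g, g ∈ ρ.ker ↔ ρ.character g = ρ.character 1 := by
    intro g
    rw [Representation.char_one, character_eq_finrank_iff ρ g (isOfFinOrder_of_finite g),
      MonoidHom.mem_ker]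
    rfl
  refine ⟨MonoidHom.ker ρ, inferInstance, ?_, hiff⟩
  let ρ' : Representation ℂ (G ⧸ MonoidHom.ker ρ) (Fin n → ℂ) :=
    QuotientGroup.lift (MonoidHom.ker ρ) ρ (fun g hg => hg)
  have hval : ∀ g : G, ρ'.character (g : G ⧸ MonoidHom.ker ρ) = ρ.character g := fun g => rfl
  refine ⟨ρ'.character, isCharacter_character ρ', ?_, ?_⟩
  · intro x hx
    obtain ⟨g, rfl⟩ := QuotientGroup.mk_surjective x
    rw [hval] at hx
    have h1 : ρ'.character 1 = ρ.character 1 := hval 1
    rw [h1] at hx
    exact (QuotientGroup.eq_one_iff g).2 ((hiff g).2 hx)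
  · intro p hp
    exact hd p hp

/-- Lifting a Hall subgroup from a quotient. -/
theorem lift_or_comm [Finite G] (hπ : ∀ p ∈ π, p.Prime) (hg : GoodPi π G)
    (IH : ∀ (L : Type u) [Group L] [Finite L], Nat.card L < Nat.card G → GoodPi π L → HasHall π L)
    (K : Subgroup G) [K.Normal] (hK : K ≠ ⊥) (hgK : GoodPi π (G ⧸ K)) :
    HasHall π G ∨ ∀ a b : G, a * b * a⁻¹ * b⁻¹ ∈ K := by
  classical
  have hlt : Nat.card (G ⧸ K) < Nat.card G := by
    have h1 := K.card_mul_index
    have h2 : 1 < Nat.card K := by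
      haveI : Nontrivial K := (Subgroup.nontrivial_iff_ne_bot K).2 hK
      exact Finite.one_lt_card
    have h3 : 0 < K.index := Nat.pos_of_ne_zero Subgroup.index_ne_zero_of_finite
    rw [show Nat.card (G ⧸ K) = K.index from rfl, ← h1]
    nlinarith
  obtain ⟨A, hAc, hAo, hAi⟩ := IH _ hlt hgK
  let H : Subgroup G := A.comap (QuotientGroup.mk' K)
  have hHi : H.index = A.index :=
    Subgroup.index_comap_of_surjective _ (QuotientGroup.mk'_surjective K)
  by_cases hH : H = ⊤
  · right
    intro a b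
    have ha : ((a : G ⧸ K)) ∈ A := by
      have : a ∈ H := hH ▸ Subgroup.mem_top a
      exact this
    have hb : ((b : G ⧸ K)) ∈ A := by
      have : b ∈ H := hH ▸ Subgroup.mem_top b
      exact this
    have h1 := hAc _ ha _ hb
    rw [← QuotientGroup.eq_one_iff]
    simp only [QuotientGroup.mk_mul, QuotientGroup.mk_inv]
    rw [h1]
    group
  · left
    have hlt2 : Nat.card H < Nat.card G := by
      have h1 := H.card_mul_index
      have h2 : H.index ≠ 1 := fun h => hH (Subgroup.index_eq_one.1 h)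
      have h3 : 0 < H.index := Nat.pos_of_ne_zero Subgroup.index_ne_zero_of_finite
      have h4 : 0 < Nat.card H := Nat.card_pos
      rw [← h1]
      have : 2 ≤ H.index := by omega
      nlinarith
    obtain ⟨B, hBc, hBo, hBi⟩ := IH _ hlt2 (good_restrict hg H)
    refine ⟨B.map H.subtype, ?_, ?_, ?_⟩
    · rintro _ ⟨x, hx, rfl⟩ _ ⟨y, hy, rfl⟩
      exact congrArg Subtype.val (hBc x hx y hy)
    · intro q hq hqd
      refine hBo q hq ?_
      rwa [Subgroup.card_map_of_injective H.subtype_injective] at hqd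
    · intro q hqπ hqd
      rw [Subgroup.index_map_subtype] at hqd
      rcases (hπ q hqπ).dvd_mul.1 hqd with h | h
      · exact hBi q hqπ h
      · rw [hHi] at h
        exact hAi q hqπ h

/-- A maximal order `π`-subgroup. -/
theorem exists_max_pi [Finite G] : ∃ M : Subgroup G, (∀ q : ℕ, q.Prime → q ∣ Nat.card M → q ∈ π) ∧
    ∀ M' : Subgroup G, (∀ q : ℕ, q.Prime → q ∣ Nat.card M' → q ∈ π) →
      Nat.card M' ≤ Nat.card M := by
  obtain ⟨M, hM, hmax⟩ := Set.exists_max_image
    {M : Subgroup G | ∀ q : ℕ, q.Prime → q ∣ Nat.card M → q ∈ π} (fun M => Nat.card M)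
    (Set.toFinite _) ⟨⊥, fun q hq hd => by
      simp only [Subgroup.card_bot, Nat.dvd_one] at hd
      exact absurd hd hq.ne_one⟩
  exact ⟨M, hM, fun M' hM' => hmax M' hM'⟩

/-- The abelian case. -/
theorem hasHall_of_comm [Finite G] (hπ : ∀ p ∈ π, p.Prime) (hc : ∀ a b : G, a * b = b * a) :
    HasHall π G := by
  classical
  obtain ⟨M, hM, hmax⟩ := exists_max_pi (π := π) (G := G)
  refine ⟨M, fun x _ y _ => hc x y, hM, ?_⟩
  intro q hq hqd
  haveI hn : M.Normal := ⟨fun n hn g => by
    have : g * n * g⁻¹ = n := by rw [hc g n]; group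
    rwa [this]⟩
  haveI : Fact q.Prime := ⟨hπ q hq⟩
  have hqd' : q ∣ Nat.card (G ⧸ M) := hqd
  obtain ⟨y, hy⟩ := exists_prime_orderOf_dvd_card' (G := G ⧸ M) q hqd'
  let M' : Subgroup G := (Subgroup.zpowers y).comap (QuotientGroup.mk' M)
  have hi : M'.index = (Subgroup.zpowers y).index :=
    Subgroup.index_comap_of_surjective _ (QuotientGroup.mk'_surjective M)
  have h1 := M'.card_mul_index
  have h2 := M.card_mul_index
  have h3 := (Subgroup.zpowers y).card_mul_index
  rw [Nat.card_zpowers, hy] at h3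
  have h4 : Nat.card (G ⧸ M) = M.index := rfl
  have h5 : Nat.card M' = Nat.card M * q := by
    have hipos : 0 < M'.index := Nat.pos_of_ne_zero Subgroup.index_ne_zero_of_finite
    refine Nat.eq_of_mul_eq_mul_right hipos ?_
    rw [h1, mul_assoc, hi, h3, h4, h2]
  have h6 := hmax M' (fun r hr hrd => by
    rw [h5] at hrd
    rcases hr.dvd_mul.1 hrd with h | h
    · exact hM r hr h
    · have := (Nat.prime_dvd_prime_iff_eq hr (hπ q hq)).1 h
      rwa [this])
  rw [h5] at h6
  have hMpos : 0 < Nat.card M := Nat.card_pos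
  have hq2 := (hπ q hq).two_le
  nlinarith

end Good


section Main

variable {G : Type u} [Group G]

/-- Transfer: a central element of order prime to the index of an abelian subgroup containing
it is not in the commutator subgroup. -/
theorem not_mem_commutator_of_central [Finite G] {R : Subgroup G}
    (hR : ∀ x ∈ R, ∀ y ∈ R, x * y = y * x) {z : G} (hz : z ∈ Subgroup.center G)
    (hcop : (orderOf z).Coprime R.index) (hne : z ≠ 1) : z ∉ commutator G := by
  classical
  letI : CommGroup R :=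
    { (inferInstance : Group R) with mul_comm := fun a b => Subtype.ext (hR _ a.2 _ b.2) }
  intro hmem
  have hzc : ∀ y : G, y * z = z * y := fun y => (Subgroup.mem_center_iff.1 hz) y
  have key : ∀ (k : ℕ) (g₀ : G), g₀⁻¹ * z ^ k * g₀ ∈ R → g₀⁻¹ * z ^ k * g₀ = z ^ k := by
    intro k g₀ _
    have h1 : z ^ k ∈ Subgroup.center G := Subgroup.pow_mem _ hz k
    have h2 := (Subgroup.mem_center_iff.1 h1) g₀⁻¹
    rw [h2]
    group
  have h1 := MonoidHom.transfer_eq_pow (MonoidHom.id R) z key
  have h2 : MonoidHom.transfer (MonoidHom.id R) z = 1 :=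
    Abelianization.commutator_subset_ker _ hmem
  rw [h2] at h1
  have h3 : z ^ R.index = 1 := by
    have := congrArg Subtype.val h1
    simpa using this.symm
  have h4 := orderOf_dvd_of_pow_eq_one h3
  have h5 : orderOf z = 1 := Nat.Coprime.eq_one_of_dvd hcop h4
  exact hne (orderOf_eq_one_iff.1 h5)

theorem exists_linear_ne_one [Finite G] {z : G} (hz : z ∉ commutator G) :
    ∃ ν : G →* ℂˣ, ν z ≠ 1 := by
  classical
  haveI : Finite (Abelianization G) := inferInstanceAs (Finite (G ⧸ commutator G))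
  haveI : NeZero ((Monoid.exponent (Abelianization G) : ℕ) : ℂ) :=
    ⟨Nat.cast_ne_zero.2 Monoid.exponent_ne_zero_of_finite⟩
  have ha : Abelianization.of z ≠ 1 := by
    intro h
    exact hz ((QuotientGroup.eq_one_iff z).1 h)
  obtain ⟨φ, hφ⟩ := CommGroup.exists_apply_ne_one_of_hasEnoughRootsOfUnity (Abelianization G) ℂ ha
  exact ⟨φ.comp Abelianization.of, hφ⟩

/-- Twisting to kill a central element. -/
theorem twist_central [Fintype G] {χ : G → ℂ} (hχ : IsIrrCharacter G χ) {z : G}
    (hz : z ∈ Subgroup.center G) {r : ℕ} (hr : r.Prime) (hzr : orderOf z = r)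
    (hnot : z ∉ commutator G) : ∃ ν : G →* ℂˣ, χ z * (ν z : ℂ) = χ 1 := by
  classical
  haveI : Fact r.Prime := ⟨hr⟩
  haveI : NeZero r := ⟨hr.ne_zero⟩
  obtain ⟨ν₀, hν₀⟩ := exists_linear_ne_one hnot
  obtain ⟨n, ρ, hρ, rfl⟩ := hχ
  have hcomm : ∀ g v, ρ z (ρ g v) = ρ g (ρ z v) := by
    intro g v
    rw [← Module.End.mul_apply, ← Module.End.mul_apply, ← map_mul, ← map_mul,
      (Subgroup.mem_center_iff.1 hz) g]
  obtain ⟨c, hc⟩ := schur_scalar ρ hρ (ρ z) hcomm
  have hnt : 0 < Module.finrank ℂ (Fin n → ℂ) := finrank_pos_of_irr hρ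
  haveI : Nontrivial (Fin n → ℂ) := Module.nontrivial_of_finrank_pos hnt
  have hchar : ρ.character z = c * (Module.finrank ℂ (Fin n → ℂ) : ℂ) := by
    show LinearMap.trace ℂ _ (ρ z) = _
    rw [hc, map_smul]
    simp
  have hcr : c ^ r = 1 := by
    have h1 : ρ (z ^ r) = 1 := by
      rw [← hzr, pow_orderOf_eq_one, map_one]
    rw [map_pow, hc, smul_pow, one_pow] at h1
    by_contra hne
    obtain ⟨v, hv⟩ := exists_ne (0 : Fin n → ℂ)
    have h2 := congrArg (fun T : Module.End ℂ (Fin n → ℂ) => T v) h1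
    simp only [LinearMap.smul_apply, Module.End.one_apply] at h2
    have h3 : (c ^ r - 1) • v = 0 := by
      rw [sub_smul, one_smul, h2, sub_self]
    rcases smul_eq_zero.1 h3 with h4 | h4
    · exact hne (sub_eq_zero.1 h4)
    · exact hv h4
  have hc0 : c ≠ 0 := by
    rintro rfl
    rw [zero_pow hr.ne_zero] at hcr
    exact zero_ne_one hcr
  set ζ : ℂ := (ν₀ z : ℂ) with hζ
  have hζr : ζ ^ r = 1 := by
    have h1 : ν₀ z ^ r = 1 := by
      rw [← map_pow, ← hzr, pow_orderOf_eq_one, map_one]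
    have := congrArg (fun u : ℂˣ => (u : ℂ)) h1
    simpa using this
  have hζ1 : ζ ≠ 1 := by
    intro h
    exact hν₀ (Units.ext h)
  have hord : orderOf ζ = r := orderOf_eq_prime hζr hζ1
  have hprim : IsPrimitiveRoot ζ r := hord ▸ IsPrimitiveRoot.orderOf ζ
  have hcinv : c⁻¹ ^ r = 1 := by
    rw [inv_pow, hcr, inv_one]
  obtain ⟨i, -, hi⟩ := hprim.eq_pow_of_pow_eq_one hcinv
  refine ⟨ν₀ ^ i, ?_⟩
  have hν : (((ν₀ ^ i) z : ℂˣ) : ℂ) = c⁻¹ := by
    rw [MonoidHom.pow_apply, Units.val_pow_eq_pow_val, ← hζ, hi]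
  rw [hν, hchar, Representation.char_one]
  field_simp

variable {π : Set ℕ}

theorem hall_main (hπ : ∀ p ∈ π, p.Prime) : ∀ (N : ℕ) (G : Type u) [Group G] [Finite G],
    Nat.card G = N → GoodPi π G → HasHall π G := by
  intro N
  induction N using Nat.strong_induction_on with
  | _ N ih =>
    intro G _ _ hN hg
    classical
    have IH : ∀ (L : Type u) [Group L] [Finite L], Nat.card L < Nat.card G → GoodPi π L →
        HasHall π L := fun L _ _ hL hgL => ih _ (hN ▸ hL) L rfl hgL
    letI : Fintype G := Fintype.ofFinite G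
    by_contra hno
    obtain ⟨χ₀, hχ₀, hf₀, hd₀⟩ := id hg
    -- a faithful irreducible constituent
    have hexists : ∃ ξ : G → ℂ, IsIrrCharacter G ξ ∧ (∀ g, ξ g = ξ 1 → g = 1) ∧
        ∀ p ∈ π, charDegree ξ + 1 < p := by
      by_contra hcon
      apply hno
      apply hasHall_of_comm hπ
      refine comm_of_linear_constituents hχ₀ hf₀ (fun ξ hξ h0 => ?_)
      have hle := charDegree_le_of_constituent hχ₀ hξ h0
      have hdξ : ∀ p ∈ π, charDegree ξ + 1 < p := fun p hp => by
        have := hd₀ p hp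
        omega
      obtain ⟨K, hKn, hgK, hK⟩ := exists_good_quot (IsIrrCharacter.isCharacter hξ) hdξ
      have hnf : ¬ (∀ g, ξ g = ξ 1 → g = 1) := fun hfaith => hcon ⟨ξ, hξ, hfaith, hdξ⟩
      push Not at hnf
      obtain ⟨g, hg1, hg2⟩ := hnf
      have hKne : K ≠ ⊥ := by
        rintro rfl
        exact hg2 ((Subgroup.mem_bot).1 ((hK g).2 hg1))
      rcases lift_or_comm hπ hg IH K hKne hgK with h | h
      · exact absurd h hno
      · exact degree_one_of_restrict_trivial K h hξ (ξ 1) (fun n => (hK n).1 n.2)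
    obtain ⟨χ, hχ, hf, hd⟩ := hexists
    have hχc := IsIrrCharacter.isCharacter hχ
    have hg' : GoodPi π G := ⟨χ, hχc, hf, hd⟩
    -- no central `π`-elements
    have hnocentral : ∀ z ∈ Subgroup.center G, ∀ r ∈ π, orderOf z = r → False := by
      intro z hz r hr hzr
      have hrp := hπ r hr
      haveI : Fact r.Prime := ⟨hrp⟩
      have hz1 : z ≠ 1 := by
        rintro rfl
        rw [orderOf_one] at hzr
        exact hrp.one_lt.ne hzr
      have hpg : IsPGroup r (Subgroup.zpowers z) := by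
        rw [IsPGroup.iff_card, Nat.card_zpowers, hzr]
        exact ⟨1, (pow_one r).symm⟩
      obtain ⟨R, hzR⟩ := hpg.exists_le_sylow
      have hRc : ∀ x ∈ (R : Subgroup G), ∀ y ∈ (R : Subgroup G), x * y = y * x := by
        intro x hx y hy
        have := comm_of_pi_order hπ (good_restrict hg' (R : Subgroup G))
          (fun q hq hqd => by
            have hc := (IsPGroup.iff_card.1 R.isPGroup')
            obtain ⟨k, hk⟩ := hc
            rw [hk] at hqd
            have := (Nat.prime_dvd_prime_iff_eq hq hrp).1 (hq.dvd_of_dvd_pow hqd)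
            rwa [this]) ⟨x, hx⟩ ⟨y, hy⟩
        exact congrArg Subtype.val this
      have hcop : (orderOf z).Coprime (R : Subgroup G).index := by
        rw [hzr]
        exact (Nat.Prime.coprime_iff_not_dvd hrp).2 R.not_dvd_index
      have hnot := not_mem_commutator_of_central hRc hz hcop hz1
      obtain ⟨ν, hν⟩ := twist_central hχ hz hrp hzr hnot
      have hν1 : IsCharacter G (fun g => (ν g : ℂ)) :=
        IsIrrCharacter.isCharacter (isIrrCharacter_of_hom ν)
      have hirr : IsIrrCharacter G (χ * fun g => (ν g : ℂ)) :=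
        isIrr_mul_linear hχ hν1 (by simp)
      have hone : (χ * fun g => (ν g : ℂ)) 1 = χ 1 := by
        simp
      have hdeg : charDegree (χ * fun g => (ν g : ℂ)) = charDegree χ := by
        unfold charDegree
        rw [hone]
      obtain ⟨K, hKn, hgK, hK⟩ := exists_good_quot (IsIrrCharacter.isCharacter hirr)
        (fun p hp => by rw [hdeg]; exact hd p hp)
      have hzK : z ∈ K := (hK z).2 (by
        rw [hone]
        exact hν)
      have hKne : K ≠ ⊥ := by
        rintro rfl
        exact hz1 ((Subgroup.mem_bot).1 hzK)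
      rcases lift_or_comm hπ hg' IH K hKne hgK with h | h
      · exact hno h
      · have h1 := degree_one_of_restrict_trivial K h hirr _ (fun n => (hK n).1 n.2)
        rw [hone] at h1
        apply hno
        apply hasHall_of_comm hπ
        refine comm_of_linear_constituents hχc hf (fun ξ hξ h0 => ?_)
        have : ξ = χ := by
          by_contra hne
          exact h0 (classInner_irr_of_ne hχ hξ (Ne.symm hne))
        rw [this]
        exact h1
    -- the maximal `π`-subgroup
    obtain ⟨M, hM, hmax⟩ := exists_max_pi (π := π) (G := G)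
    have hMc : ∀ x ∈ M, ∀ y ∈ M, x * y = y * x := by
      intro x hx y hy
      have := comm_of_pi_order hπ (good_restrict hg' M) hM ⟨x, hx⟩ ⟨y, hy⟩
      exact congrArg Subtype.val this
    obtain ⟨q, hqπ, hqd⟩ : ∃ q ∈ π, q ∣ M.index := by
      by_contra h
      push Not at h
      exact hno ⟨M, hMc, hM, h⟩
    have hqp := hπ q hqπ
    -- the key consequence of induction
    have star : ∀ x ∈ M, x ≠ 1 → ∃ t, Nat.card (Subgroup.centralizer ({x} : Set G)) = Nat.card M * t ∧
        ∀ r ∈ π, ¬ r ∣ t := by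
      intro x hxM hx1
      set C := Subgroup.centralizer ({x} : Set G) with hC
      have hCne : C ≠ ⊤ := by
        intro htop
        have hxc : x ∈ Subgroup.center G := by
          rw [Subgroup.mem_center_iff]
          intro g
          have : g ∈ C := htop ▸ Subgroup.mem_top g
          exact (Subgroup.mem_centralizer_singleton_iff.1 this)
        have hord1 : orderOf x ≠ 1 := fun h => hx1 (orderOf_eq_one_iff.1 h)
        obtain ⟨r, hr, hrd⟩ := Nat.exists_prime_and_dvd hord1
        have hoM : orderOf x ∣ Nat.card M := by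
          have := orderOf_dvd_natCard (⟨x, hxM⟩ : M)
          rwa [Subgroup.orderOf_mk] at this
        have hrπ := hM r hr (hrd.trans hoM)
        have ho0 : orderOf x ≠ 0 := (orderOf_pos x).ne'
        exact hnocentral _ (Subgroup.pow_mem _ hxc (orderOf x / r)) r hrπ
          (orderOf_pow_orderOf_div ho0 hrd)
      have hlt : Nat.card C < Nat.card G := by
        have h1 := C.card_mul_index
        have h2 : C.index ≠ 1 := fun h => hCne (Subgroup.index_eq_one.1 h)
        have h3 : 0 < C.index := Nat.pos_of_ne_zero Subgroup.index_ne_zero_of_finite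
        have h4 : 0 < Nat.card C := Nat.card_pos
        rw [← h1]
        have : 2 ≤ C.index := by omega
        nlinarith
      obtain ⟨H, hHc, hHo, hHi⟩ := IH _ hlt (good_restrict hg' C)
      have hMC : M ≤ C := fun y hy => by
        rw [hC, Subgroup.mem_centralizer_singleton_iff]
        exact hMc y hy x hxM
      have hMdC : Nat.card M ∣ Nat.card C := Subgroup.card_dvd_of_le hMC
      have hHcard := H.card_mul_index
      have hd1 : Nat.card M ∣ Nat.card H := by
        have hMpos : Nat.card M ≠ 0 := Nat.card_pos.ne'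
        have hHpos : Nat.card H ≠ 0 := Nat.card_pos.ne'
        refine (Nat.factorization_prime_le_iff_dvd hMpos hHpos).1 fun r hr => ?_
        by_cases hrπ : r ∈ π
        · have hr1 : ¬ r ∣ H.index := hHi r hrπ
          have h2 : (Nat.card C).factorization r = (Nat.card H).factorization r := by
            rw [← hHcard, Nat.factorization_mul hHpos Subgroup.index_ne_zero_of_finite]
            simp [Nat.factorization_eq_zero_of_not_dvd hr1]
          rw [← h2]
          exact (Nat.factorization_le_iff_dvd hMpos Nat.card_pos.ne').2 hMdC r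
        · have h3 : ¬ r ∣ Nat.card M := fun h => hrπ (hM r hr h)
          rw [Nat.factorization_eq_zero_of_not_dvd h3]
          exact Nat.zero_le _
      have hle := hmax (H.map C.subtype) (fun r hr hrd => by
        rw [Subgroup.card_map_of_injective C.subtype_injective] at hrd
        exact hHo r hr hrd)
      rw [Subgroup.card_map_of_injective C.subtype_injective] at hle
      have heq : Nat.card H = Nat.card M :=
        le_antisymm hle (Nat.le_of_dvd Nat.card_pos hd1)
      exact ⟨H.index, by rw [← heq, hHcard], hHi⟩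
    -- primes of `M` are full
    have claimA : ∀ r ∈ π, r ∣ Nat.card M → ¬ r ∣ M.index := by
      intro r hrπ hrd hri
      have hrp := hπ r hrπ
      haveI : Fact r.Prime := ⟨hrp⟩
      obtain ⟨x, hx⟩ := exists_prime_orderOf_dvd_card' (G := M) r hrd
      have hx' : orderOf (x : G) = r := by
        rw [Subgroup.orderOf_coe]
        exact hx
      have hx1 : (x : G) ≠ 1 := by
        intro h
        rw [h, orderOf_one] at hx'
        exact hrp.one_lt.ne hx'
      have hpg : IsPGroup r (Subgroup.zpowers (x : G)) := by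
        rw [IsPGroup.iff_card, Nat.card_zpowers, hx']
        exact ⟨1, (pow_one r).symm⟩
      obtain ⟨Q, hxQ⟩ := hpg.exists_le_sylow
      have hQcard := IsPGroup.iff_card.1 Q.isPGroup'
      obtain ⟨a, ha⟩ := hQcard
      have hQc : ∀ y ∈ (Q : Subgroup G), y * x = x * y := by
        intro y hy
        have := comm_of_pi_order hπ (good_restrict hg' (Q : Subgroup G))
          (fun s hs hsd => by
            rw [ha] at hsd
            have := (Nat.prime_dvd_prime_iff_eq hs hrp).1 (hs.dvd_of_dvd_pow hsd)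
            rwa [this]) ⟨y, hy⟩ ⟨x, hxQ (Subgroup.mem_zpowers _)⟩
        exact congrArg Subtype.val this
      obtain ⟨t, ht, htr⟩ := star x x.2 hx1
      have hQC : (Q : Subgroup G) ≤ Subgroup.centralizer ({(x : G)} : Set G) := fun y hy => by
        rw [Subgroup.mem_centralizer_singleton_iff]
        exact hQc y hy
      have h1 : r ^ a ∣ Nat.card M * t := by
        rw [← ha, ← ht]
        exact Subgroup.card_dvd_of_le hQC
      have h2 : (r ^ a).Coprime t :=
        Nat.Coprime.pow_left a ((Nat.Prime.coprime_iff_not_dvd hrp).2 (htr r hrπ))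
      have h3 : r ^ a ∣ Nat.card M := h2.dvd_of_dvd_mul_right h1
      obtain ⟨u, hu⟩ := h3
      have h4 := (Q : Subgroup G).card_mul_index
      have h5 := M.card_mul_index
      rw [ha] at h4
      rw [hu] at h5
      have h6 : r ^ a * (Q : Subgroup G).index = r ^ a * (u * M.index) := by
        rw [h4, ← h5]
        ring
      have h7 := Nat.eq_of_mul_eq_mul_left (pow_pos hrp.pos a) h6
      exact Q.not_dvd_index (h7 ▸ Dvd.dvd.mul_left hri u)
    have hqM : ¬ q ∣ Nat.card M := fun h => claimA q hqπ h hqd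
    have hqG : q ∣ Nat.card G := hqd.trans (Subgroup.index_dvd_card M)
    haveI : Fact q.Prime := ⟨hqp⟩
    have hM1 : Nat.card M ≠ 1 := by
      intro h1
      obtain ⟨y, hy⟩ := exists_prime_orderOf_dvd_card' (G := G) q hqG
      have := hmax (Subgroup.zpowers y) (fun r hr hrd => by
        rw [Nat.card_zpowers, hy] at hrd
        have := (Nat.prime_dvd_prime_iff_eq hr hqp).1 hrd
        rwa [this])
      rw [Nat.card_zpowers, hy, h1] at this
      have := hqp.two_le
      omega
    obtain ⟨p, hp, hpd⟩ := Nat.exists_prime_and_dvd hM1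
    have hpπ := hM p hp hpd
    have hpi := claimA p hpπ hpd
    have hpG : p ∣ Nat.card G := hpd.trans (Subgroup.card_subgroup_dvd_card M)
    haveI : Fact p.Prime := ⟨hp⟩
    obtain ⟨g, hgp, hgq⟩ := exists_mixed_order hχ hf hp hqp (hd p hpπ) (hd q hqπ) hpG hqG
    have ho0 : orderOf g ≠ 0 := (orderOf_pos g).ne'
    set x₀ := g ^ (orderOf g / p) with hx₀
    set y₀ := g ^ (orderOf g / q) with hy₀
    have hxo : orderOf x₀ = p := orderOf_pow_orderOf_div ho0 hgp
    have hyo : orderOf y₀ = q := orderOf_pow_orderOf_div ho0 hgq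
    have hcomm : x₀ * y₀ = y₀ * x₀ := by
      rw [hx₀, hy₀, ← pow_add, ← pow_add, add_comm]
    have hpg : IsPGroup p (Subgroup.zpowers x₀) := by
      rw [IsPGroup.iff_card, Nat.card_zpowers, hxo]
      exact ⟨1, (pow_one p).symm⟩
    obtain ⟨b, hb⟩ := hpg.nonempty_fixed_point_of_prime_not_dvd_card (G ⧸ M) hpi
    obtain ⟨t, rfl⟩ := QuotientGroup.mk_surjective b
    have hfix := hb (⟨x₀, Subgroup.mem_zpowers x₀⟩ : Subgroup.zpowers x₀)
    have hfix' : ((x₀ * t : G) : G ⧸ M) = (t : G ⧸ M) := hfix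
    have hmem : (x₀ * t)⁻¹ * t ∈ M := QuotientGroup.eq.1 hfix'
    have hmem2 : t⁻¹ * x₀ * t ∈ M := by
      have h1 := M.inv_mem hmem
      have h2 : ((x₀ * t)⁻¹ * t)⁻¹ = t⁻¹ * x₀ * t := by group
      rwa [h2] at h1
    have hx1 : t⁻¹ * x₀ * t ≠ 1 := by
      intro h
      have h2 : x₀ = 1 := by
        have h3 : x₀ = t * (t⁻¹ * x₀ * t) * t⁻¹ := by group
        rw [h3, h]
        group
      rw [h2, orderOf_one] at hxo
      exact hp.one_lt.ne hxo
    obtain ⟨s, hs, hsq⟩ := star _ hmem2 hx1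
    have hyC : t⁻¹ * y₀ * t ∈ Subgroup.centralizer ({t⁻¹ * x₀ * t} : Set G) := by
      rw [Subgroup.mem_centralizer_singleton_iff]
      have : t⁻¹ * y₀ * t * (t⁻¹ * x₀ * t) = t⁻¹ * (y₀ * x₀) * t := by group
      rw [this, ← hcomm]
      group
    have hq1 : q ∣ Nat.card (Subgroup.centralizer ({t⁻¹ * x₀ * t} : Set G)) := by
      have h1 := orderOf_dvd_natCard (⟨_, hyC⟩ : Subgroup.centralizer ({t⁻¹ * x₀ * t} : Set G))
      rw [Subgroup.orderOf_mk] at h1
      have h2 : orderOf (t⁻¹ * y₀ * t) = q := by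
        have h3 := MulEquiv.orderOf_eq (MulAut.conj t⁻¹) y₀
        rw [MulAut.conj_apply, inv_inv] at h3
        rw [h3, hyo]
      rwa [h2] at h1
    rw [hs] at hq1
    rcases hqp.dvd_mul.1 hq1 with h | h
    · exact hqM h
    · exact hsq q hqπ h

end Main


section Public

/-- Abelian Hall subgroup for the primes above `n + 1`. -/
theorem exists_abelian_hall {G : Type u} [Group G] [Finite G] (χ : G → ℂ) (hχ : IsCharacter G χ)
    (hfaith : ∀ g : G, χ g = χ 1 → g = 1) (n : ℕ) (hn : charDegree χ = n) :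
    ∃ A : Subgroup G, (∀ x ∈ A, ∀ y ∈ A, x * y = y * x) ∧
      (∀ q : ℕ, q.Prime → q ∣ Nat.card A → n + 1 < q) ∧
      ∀ q : ℕ, q.Prime → q ∣ A.index → q ≤ n + 1 := by
  have hg : GoodPi {q : ℕ | q.Prime ∧ n + 1 < q} G :=
    ⟨χ, hχ, hfaith, fun p hp => by rw [hn]; exact hp.2⟩
  obtain ⟨A, hAc, hAo, hAi⟩ := hall_main (π := {q : ℕ | q.Prime ∧ n + 1 < q}) (fun p hp => hp.1) _ G rfl hg
  refine ⟨A, hAc, fun q hq hd => (hAo q hq hd).2, fun q hq hd => ?_⟩
  by_contra hlt
  exact hAi q ⟨hq, by omega⟩ hd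

end Public

section Perm

variable {P : Type u} [Group P] [Fintype P] [Group.IsNilpotent P]

/-- A nilpotent group with a faithful character of degree `n` has an abelian subgroup whose index
divides `n!`. -/
theorem exists_abelian_index_dvd_factorial {χ : P → ℂ} (hχ : IsCharacter P χ)
    (hf : ∀ g, χ g = χ 1 → g = 1) :
    ∃ D : Subgroup P, (∀ x ∈ D, ∀ y ∈ D, x * y = y * x) ∧ D.index ∣ (charDegree χ).factorial := by
  classical
  have hsum := classFunction_eq_sum χ (IsCharacter.isClassFunction hχ)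
  let C := {ξ : IrrCharacter P // classInner χ (ξ : P → ℂ) ≠ 0}
  have hmono : ∀ ξ : C, IsMonomialFn (ξ.1 : P → ℂ) := fun ξ => monomial_of_nilpotent ξ.1.2
  choose U lam hU using hmono
  let X := Σ ξ : C, P ⧸ U ξ
  letI : Fintype X := Fintype.ofFinite X
  let φ : P →* Equiv.Perm X := MulAction.toPermHom P X
  refine ⟨φ.ker, ?_, ?_⟩
  · -- the kernel is abelian
    intro a ha b hb
    have hmemU : ∀ (ξ : C) (d : P), d ∈ φ.ker → ∀ g : P, g⁻¹ * d * g ∈ U ξ := by
      intro ξ d hd g
      have h1 : φ d = 1 := hd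
      have h2 := congrArg (fun e : Equiv.Perm X => e ⟨ξ, (g : P ⧸ U ξ)⟩) h1
      have h3 : d • (g : P ⧸ U ξ) = (g : P ⧸ U ξ) := by
        have h4 : (⟨ξ, d • (g : P ⧸ U ξ)⟩ : X) = ⟨ξ, (g : P ⧸ U ξ)⟩ := h2
        exact eq_of_heq (Sigma.mk.inj_iff.1 h4).2
      have h5 : ((d * g : P) : P ⧸ U ξ) = (g : P ⧸ U ξ) := h3
      have h6 := QuotientGroup.eq.1 h5
      have h7 := (U ξ).inv_mem h6
      have h8 : ((d * g)⁻¹ * g)⁻¹ = g⁻¹ * d * g := by group
      rwa [h8] at h7
    have hc : χ (a * b * a⁻¹ * b⁻¹) = χ 1 := by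
      rw [hsum]
      simp only [Finset.sum_apply, Pi.smul_apply, smul_eq_mul]
      refine Finset.sum_congr rfl fun ξ _ => ?_
      by_cases h0 : classInner χ (ξ : P → ℂ) = 0
      · rw [h0]
        simp
      · congr 1
        have hU' := hU ⟨ξ, h0⟩
        change (ξ : P → ℂ) = _ at hU'
        rw [hU', indFun_apply, indFun_apply]
        congr 1
        refine Finset.sum_congr rfl fun g _ => ?_
        have ha' := hmemU ⟨ξ, h0⟩ a ha g
        have hb' := hmemU ⟨ξ, h0⟩ b hb g
        set W := U ⟨ξ, h0⟩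
        have e1 : g⁻¹ * (a * b * a⁻¹ * b⁻¹) * g ∈ W := by
          have : g⁻¹ * (a * b * a⁻¹ * b⁻¹) * g =
              (g⁻¹ * a * g) * (g⁻¹ * b * g) * (g⁻¹ * a * g)⁻¹ * (g⁻¹ * b * g)⁻¹ := by group
          rw [this]
          exact W.mul_mem (W.mul_mem (W.mul_mem ha' hb') (W.inv_mem ha')) (W.inv_mem hb')
        have e2 : g⁻¹ * 1 * g ∈ W := by
          simp [W.one_mem]
        rw [extendByZero_of_mem _ _ e1, extendByZero_of_mem _ _ e2]
        have hval : (⟨g⁻¹ * (a * b * a⁻¹ * b⁻¹) * g, e1⟩ : W) =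
            (⟨g⁻¹ * a * g, ha'⟩ : W) * ⟨g⁻¹ * b * g, hb'⟩ * (⟨g⁻¹ * a * g, ha'⟩ : W)⁻¹ *
              (⟨g⁻¹ * b * g, hb'⟩ : W)⁻¹ := by
          apply Subtype.ext
          simp only [Subgroup.coe_mul, Subgroup.coe_inv]
          group
        have hval1 : (⟨g⁻¹ * 1 * g, e2⟩ : W) = 1 := by
          apply Subtype.ext
          simp
        rw [hval, hval1, map_one, map_mul, map_mul, map_mul, map_inv, map_inv]
        rw [mul_comm (lam ⟨ξ, h0⟩ ⟨g⁻¹ * a * g, ha'⟩) (lam ⟨ξ, h0⟩ ⟨g⁻¹ * b * g, hb'⟩)]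
        simp
    have h1 := hf _ hc
    have h2 : a * b = (a * b * a⁻¹ * b⁻¹) * (b * a) := by group
    rw [h2, h1, one_mul]
  · -- the index divides the factorial
    have hcardX : Fintype.card X ≤ charDegree χ := by
      have hdeg : ∀ ξ : C, (U ξ).index = charDegree (ξ.1 : P → ℂ) := by
        intro ξ
        have h1 := congrFun (hU ξ) 1
        rw [indFun_one, map_one_eq_charDegree (IsIrrCharacter.isCharacter ξ.1.2)] at h1
        simp only [map_one, Units.val_one, mul_one] at h1
        exact_mod_cast h1.symm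
      have hc1 : Fintype.card X = ∑ ξ : C, charDegree (ξ.1 : P → ℂ) := by
        rw [← Nat.card_eq_fintype_card]
        show Nat.card (Σ ξ : C, P ⧸ U ξ) = _
        rw [Nat.card_sigma]
        refine Finset.sum_congr rfl fun ξ _ => ?_
        rw [← hdeg, Subgroup.index]
      have hχ1 := congrFun hsum 1
      simp only [Finset.sum_apply, Pi.smul_apply, smul_eq_mul] at hχ1
      rw [map_one_eq_charDegree hχ] at hχ1
      have hnat : ∀ ξ : IrrCharacter P, ∃ a : ℕ, classInner χ (ξ : P → ℂ) = a := fun ξ =>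
        classInner_isCharacter_nat hχ (IsIrrCharacter.isCharacter ξ.2)
      choose a ha using hnat
      have h2 : charDegree χ = ∑ ξ : IrrCharacter P, a ξ * charDegree (ξ : P → ℂ) := by
        have h3 : ((charDegree χ : ℕ) : ℂ) =
            ((∑ ξ : IrrCharacter P, a ξ * charDegree (ξ : P → ℂ) : ℕ) : ℂ) := by
          rw [hχ1]
          push_cast
          refine Finset.sum_congr rfl fun ξ _ => ?_
          rw [ha, map_one_eq_charDegree (IsIrrCharacter.isCharacter ξ.2)]
        exact_mod_cast h3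
      rw [hc1, h2]
      let d : IrrCharacter P → ℕ := fun ξ => charDegree (ξ : P → ℂ)
      let pr : IrrCharacter P → Prop := fun ξ => classInner χ (ξ : P → ℂ) ≠ 0
      have h4 : ∑ ξ : C, charDegree (ξ.1 : P → ℂ) =
          ∑ ξ ∈ (Finset.univ : Finset (IrrCharacter P)).filter pr, d ξ := by
        rw [← Finset.sum_subtype_eq_sum_filter, Finset.subtype_univ]
      rw [h4]
      calc ∑ ξ ∈ (Finset.univ : Finset (IrrCharacter P)).filter pr, d ξ
          ≤ ∑ ξ ∈ (Finset.univ : Finset (IrrCharacter P)).filter pr, a ξ * d ξ := by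
            refine Finset.sum_le_sum fun ξ hξ => ?_
            have h5 : classInner χ (ξ : P → ℂ) ≠ 0 := (Finset.mem_filter.1 hξ).2
            have h6 : a ξ ≠ 0 := by
              intro h
              apply h5
              rw [ha, h]
              simp
            exact Nat.le_mul_of_pos_left _ (Nat.pos_of_ne_zero h6)
        _ ≤ ∑ ξ : IrrCharacter P, a ξ * d ξ :=
            Finset.sum_le_sum_of_subset (Finset.filter_subset _ _)
    rw [Subgroup.index_ker]
    refine dvd_trans ?_ (Nat.factorial_dvd_factorial hcardX)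
    have h7 : Nat.card (Equiv.Perm X) = (Fintype.card X).factorial := by
      rw [Nat.card_eq_fintype_card, Fintype.card_perm]
    rw [← h7]
    exact Subgroup.card_subgroup_dvd_card _

end Perm

end Cfsg.Agent.Lib.LinHall
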